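import Cfsg.Agent.Lib.TC.D.Fi22M78.Data

/-! Relators of Fi22 on the matrices of degree 78. -/

namespace Cfsg.Agent.Lib.TC.D.Fi22M78.R6

open Cfsg.Agent.Lib.TC.Mat.Fast Cfsg.Agent.Lib.TC.D.Fi22M78.Data
open _root_.Cfsg.Agent.Lib.PermComp.Core (allL)

/-- A part of the relators. -/
def part : List (List Nat) := [[7,5,4,3,2,1,0,7,5,4,3,2,1,0,7,5,4,3,2,1,0,7,5,4,3,2,1,0,7,5,4,3,2,1,0,7,5,4,3,2,1,0,7,5,4,3,2,1,0,7,5,4,3,2,1,0,7,5,4,3,2,1,0]]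

theorem chk : allL (fun l => Nat.beq (wordM S code l idc) idc) part = true := by decide +kernel

end Cfsg.Agent.Lib.TC.D.Fi22M78.R6
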