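import Cfsg.Agent.Lib.TC.D.Fi22M78.R0
import Cfsg.Agent.Lib.TC.D.Fi22M78.R1
import Cfsg.Agent.Lib.TC.D.Fi22M78.R2
import Cfsg.Agent.Lib.TC.D.Fi22M78.R3
import Cfsg.Agent.Lib.TC.D.Fi22M78.R4
import Cfsg.Agent.Lib.TC.D.Fi22M78.R5
import Cfsg.Agent.Lib.TC.D.Fi22M78.R6
import Cfsg.Agent.Lib.TC.D.Fi22M78.R7
import Cfsg.Agent.Lib.TC.G.Fi22
import Cfsg.Agent.Lib.TC.D.Fi22Chain.Main
import Cfsg.Agent.Lib.TC.Iso

/-! The homomorphism of Fi22 to the general linear group of degree 78 over the integers modulo 13. -/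

namespace Cfsg.Agent.Lib.TC.D.Fi22M78.Main

open Cfsg.Agent.Lib.TC.Mat.Fast Cfsg.Agent.Lib.TC.D.Fi22M78.Data Cfsg.Agent.Lib.TC.Core
  Cfsg.Agent.Lib.TC.Pres Cfsg.Agent.Lib.TC.Iso
open _root_.Cfsg.Agent.Lib.PermComp.Core (allL allL_eq_true)
open Cfsg.Agent.Lib.TC.G.Fi22 (K Rel rels)

theorem sq_code : ∀ c, c < 9 → wordM S code [c, c] idc = idc := by decide +kernel

theorem canon_code : ∀ c, c < 9 → canonB S (code c) = true := by decide +kernel

theorem hid : idB S idc = true := by decide +kernel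

theorem canon_id : canonB S idc = true := by decide +kernel

theorem hcan : ∀ c, c < 9 → Canon S (code c) := fun c hc => canon_of_canonB S (canon_code c hc)

theorem hidc : Canon S idc := canon_of_canonB S canon_id

theorem hmm (c : Nat) (hc : c < 9) : M S (code c) * M S (code c) = 1 := by
  have h1 := congrArg (M S) (sq_code c hc)
  have h2 : wordM S code [c, c] idc = mulM S (code c) (mulM S (code c) idc) := by
    show _root_.Cfsg.Agent.Lib.PermComp.Core.force _ _ = _
    rw [_root_.Cfsg.Agent.Lib.PermComp.Core.force_eq]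
    show _root_.Cfsg.Agent.Lib.PermComp.Core.force _ _ = _
    rw [_root_.Cfsg.Agent.Lib.PermComp.Core.force_eq]
  rw [h2, M_mulM S (hcan c hc) (canon_mulM S _ _), M_mulM S (hcan c hc) hidc, M_of_idB S hid,
    mul_one] at h1
  exact h1

/-- The letters as invertible matrices. -/
noncomputable def F (c : Nat) : GL (Fin S.d) (ZMod S.q) :=
  if h : c < 9 then ⟨M S (code c), M S (code c), hmm c h, hmm c h⟩ else 1

theorem hF : ∀ c, c < 9 → ((F c : GL (Fin S.d) (ZMod S.q)) : Matrix (Fin S.d) (Fin S.d) (ZMod S.q)) = M S (code c) := by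
  intro c hc
  rw [F, dif_pos hc]

theorem hrels_all : rels = R0.part ++ R1.part ++ R2.part ++ R3.part ++ R4.part ++ R5.part ++ R6.part ++ R7.part := by decide +kernel

theorem hlt : ∀ l ∈ rels, ∀ z ∈ l, z < 9 := by decide +kernel

theorem hword (l : List Nat) (hl : l ∈ rels) : wordM S code l idc = idc := by
  rw [hrels_all] at hl
  simp only [List.mem_append] at hl
  rcases hl with (((((((h | h) | h) | h) | h) | h) | h) | h)
  · exact Nat.eq_of_beq_eq_true ((allL_eq_true _ _).1 R0.chk l h)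
  · exact Nat.eq_of_beq_eq_true ((allL_eq_true _ _).1 R1.chk l h)
  · exact Nat.eq_of_beq_eq_true ((allL_eq_true _ _).1 R2.chk l h)
  · exact Nat.eq_of_beq_eq_true ((allL_eq_true _ _).1 R3.chk l h)
  · exact Nat.eq_of_beq_eq_true ((allL_eq_true _ _).1 R4.chk l h)
  · exact Nat.eq_of_beq_eq_true ((allL_eq_true _ _).1 R5.chk l h)
  · exact Nat.eq_of_beq_eq_true ((allL_eq_true _ _).1 R6.chk l h)
  · exact Nat.eq_of_beq_eq_true ((allL_eq_true _ _).1 R7.chk l h)

theorem hrel : ∀ l ∈ rels, prodA F l = 1 := fun l hl =>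
  prodA_eq_one S F hF hcan hid hidc l (hlt l hl) (hword l hl)

theorem hF0 : F 0 ≠ 1 := by
  intro h
  have h1 := hF 0 (by norm_num)
  rw [h, Units.val_one] at h1
  have h2 := congrFun (congrFun h1 (⟨1, by decide⟩ : Fin S.d)) (⟨0, by decide⟩ : Fin S.d)
  have h3 : entry S (code 0) 1 0 = 12 := by decide +kernel
  have h4 : M S (code 0) (⟨1, by decide⟩ : Fin S.d) (⟨0, by decide⟩ : Fin S.d) =
      ((entry S (code 0) 1 0 : Nat) : ZMod S.q) := rfl
  rw [h4, h3, Matrix.one_apply_ne (by decide)] at h2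
  change (0 : ZMod 13) = ((12 : Nat) : ZMod 13) at h2
  revert h2
  decide

theorem exists_inj : ∃ f : PresentedGroup Rel →* GL (Fin 78) (ZMod 13), Function.Injective f := by
  have hinv : ∀ c, c < K.k → F (K.inv c) = (F c)⁻¹ := by
    intro c hc
    have hc' : c < 9 := hc
    have h1 : K.inv c = c := by
      revert c
      decide
    rw [h1]
    apply eq_inv_of_mul_eq_one_left
    apply Units.ext
    rw [Units.val_mul, hF c hc', hmm c hc', Units.val_one]
  obtain ⟨ψ, hψ⟩ := exists_hom_of_letters Cfsg.Agent.Lib.TC.G.Fi22.valid Cfsg.Agent.Lib.TC.G.Fi22.hR F hinv hrel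
  have := Cfsg.Agent.Lib.TC.D.Fi22Chain.Main.simple_card.1
  refine ⟨ψ, ?_⟩
  rcases IsSimpleGroup.eq_bot_or_eq_top_of_normal ψ.ker (inferInstance) with h | h
  · exact (MonoidHom.ker_eq_bot_iff ψ).1 h
  · exfalso
    apply hF0
    rw [← hψ 0 (by decide)]
    have h5 : K.E Rel 0 ∈ ψ.ker := by
      rw [h]
      trivial
    exact h5

end Cfsg.Agent.Lib.TC.D.Fi22M78.Main
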